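import Cfsg.Agent.H38.PSU3
import Cfsg.Prelude.Def_LocalEven

/-! # `PSU₃(2^n)`: Sylow 2-subgroups are TI, `S₃` is involved (helper89, for S2755) -/

set_option autoImplicit false

namespace Cfsg.Agent.H89.RtPSU3

open Matrix Cfsg Cfsg.Agent.Uni Cfsg.Agent.AutPSU Cfsg.Agent.H38.PSU3

section

variable {F : Type*} [Field F] [Fintype F] {q : ℕ}

/-- orthogonal isotropic vectors are parallel in dimension three -/
theorem par_of_perp (hF : Fintype.card F = q ^ 2) {u w : Fin 3 → F} (hu : Iso q u) (hw : Iso q w)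
    (h : hermForm 3 F q w u = 0) : ∃ c : F, c ≠ 0 ∧ w = c • u := by
  obtain ⟨v, hv⟩ := exists_hyp' hF hu.1 hu.2
  set c := hermForm 3 F q w v with hc
  have h1 : hermForm 3 F q (w - c • u) u = 0 := by
    rw [hermForm_sub_left, hermForm_smul_left, h, hu.2]; ring
  have h2 : hermForm 3 F q (w - c • u) v = 0 := by
    rw [hermForm_sub_left, hermForm_smul_left, hv.2.2, ← hc]; ring
  have h3 : hermForm 3 F q (w - c • u) (w - c • u) = 0 := by
    rw [hermForm_sub_right hF, hermForm_smul_right, h1, hermForm_sub_left, hermForm_smul_left, hw.2,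
      (hermForm_eq_zero_comm hF).1 h]
    ring
  have h4 := eq_zero_of_perp hF hv h1 h2 h3
  refine ⟨c, ?_, sub_eq_zero.1 h4⟩
  intro h5
  rw [h5, zero_smul, sub_zero] at h4
  exact hw.1 h4

theorem RR_par (hF : Fintype.card F = q ^ 2) {u w : Fin 3 → F} (hu : Iso q u) (hw : Iso q w) {c : F}
    (hc : c ≠ 0) (h : w = c • u) {g : SU 3 F q} (hg : g ∈ RR hF hw) : g ∈ RR hF hu := by
  obtain ⟨x, s, hx, hs, hgE⟩ := hg
  rw [h] at hgE hx
  refine ⟨_, _, ?_, ?_, isEich_smul' hF hgE⟩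
  · rw [hermForm_smul_left] at hx
    rw [hermForm_smul_right, (mul_eq_zero.1 hx).resolve_left hc, mul_zero]
  · rw [hermForm_smul_left, hermForm_smul_right, pow_q_pow_q hF, mul_pow, norm_pow_q hF]
    rw [← add_mul, hs, pow_succ]; ring

theorem ti (hF : Fintype.card F = q ^ 2) [CharP F 2] (P P' : Sylow 2 (PSU 3 F q)) (h : P ≠ P') :
    P.toSubgroup ⊓ P'.toSubgroup = ⊥ := by
  have hp : Fact (Nat.Prime 2) := ⟨Nat.prime_two⟩
  obtain ⟨u, hu, hP⟩ := sylow_data hF P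
  obtain ⟨w, hw, hP'⟩ := sylow_data hF P'
  rw [eq_bot_iff]
  rintro x ⟨hx, hx'⟩
  rw [Subgroup.mem_bot]
  obtain ⟨g, hg, rfl⟩ := (hP x).1 hx
  obtain ⟨k, hk, he⟩ := (hP' _).1 hx'
  have hne : hermForm 3 F q u w ≠ 0 := by
    intro h0
    apply h
    obtain ⟨c, hc0, hc⟩ := par_of_perp hF hw hu h0
    apply Sylow.ext
    apply Subgroup.ext
    intro y
    constructor
    · intro hy
      obtain ⟨a, ha, rfl⟩ := (hP y).1 hy
      exact (hP' _).2 ⟨a, RR_par hF hw hu hc0 hc ha, rfl⟩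
    · intro hy
      obtain ⟨a, ha, rfl⟩ := (hP' y).1 hy
      have hc' : w = c⁻¹ • u := by rw [hc, smul_smul, inv_mul_cancel₀ hc0, one_smul]
      exact (hP _).2 ⟨a, RR_par hF hu hw (inv_ne_zero hc0) hc' ha, rfl⟩
  obtain ⟨c, hc0, hc⟩ := (toPSU_eq hF (by omega)).1 he.symm
  -- `hc : act k x = c • act g x`
  have hkw := RR_fix hF hw hk
  have hgw : act g w = c⁻¹ • w := by
    have h1 := hc w
    rw [hkw] at h1
    calc act g w = c⁻¹ • (c • act g w) := by rw [smul_smul, inv_mul_cancel₀ hc0, one_smul]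
      _ = c⁻¹ • w := by rw [← h1]
  obtain ⟨m, hm⟩ := RR_isPGroup hF hu ⟨g, hg⟩
  have hm' : g ^ 2 ^ m = 1 := congrArg Subtype.val hm
  have hpow : ∀ j : ℕ, act (g ^ j) w = c⁻¹ ^ j • w := by
    intro j
    induction j with
    | zero => rw [pow_zero, act_one, pow_zero, one_smul]
    | succ j ih => rw [_root_.pow_succ', act_mul, ih, act_smul, hgw, smul_smul, _root_.pow_succ]
  have h1 := hpow (2 ^ m)
  rw [hm', act_one] at h1
  have h2 : c⁻¹ ^ 2 ^ m = 1 := by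
    have h3 : (c⁻¹ ^ 2 ^ m - 1) • w = 0 := by rw [sub_smul, one_smul, ← h1, sub_self]
    exact sub_eq_zero.1 ((smul_eq_zero.1 h3).resolve_right hw.1)
  have h3 : c⁻¹ = 1 := by
    have h4 : (c⁻¹ - 1) ^ 2 ^ m = 0 := by
      rw [sub_pow_char_pow, h2, one_pow, sub_self]
    exact sub_eq_zero.1 (pow_eq_zero_iff (by positivity) |>.1 h4)
  rw [h3, one_smul] at hgw
  -- a hyperbolic pair
  set f := hermForm 3 F q u w with hf
  have hv : Hyp q u ((f⁻¹) ^ q • w) := by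
    refine ⟨hu.2, ?_, ?_⟩
    · rw [hermForm_smul_left, hermForm_smul_right, hw.2, mul_zero, mul_zero]
    · rw [hermForm_smul_right, pow_q_pow_q hF, ← hf, inv_mul_cancel₀ hne]
  have h5 := eq_one_of_fix hF hv hm' (RR_fix hF hu hg) (by rw [act_smul, hgw])
  rw [h5, map_one]

end

theorem charP_two {F : Type*} [Field F] [Fintype F] {n : ℕ} (hn : 1 ≤ n) (hF : Fintype.card F = 4 ^ n) : CharP F 2 := by
  have := Fact.mk Nat.prime_two
  have h1 : Fintype.card F = 2 ^ (2 * n) := by rw [hF, pow_mul]; norm_num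
  exact charP_of_card_eq_prime_pow h1

/-- [P5d2] -/
theorem psu3_ti {F : Type*} [Field F] [Fintype F] (n : ℕ) (hn : 2 ≤ n) (hF : Fintype.card F = 4 ^ n)
    (S T : Sylow 2 (Cfsg.PSU 3 F (2 ^ n))) (h : S ≠ T) : S.toSubgroup ⊓ T.toSubgroup = ⊥ := by
  have := charP_two (by omega) hF
  have hF' : Fintype.card F = (2 ^ n) ^ 2 := by
    rw [hF, ← pow_mul, mul_comm, pow_mul]; norm_num
  exact ti hF' S T h

theorem involves_of_injective {H G : Type*} [Group H] [Group G] (f : H →* G) (hf : Function.Injective f) :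
    Cfsg.Involves H G := by
  have h1 : (⊥ : Subgroup G).subgroupOf f.range = ⊥ := Subgroup.bot_subgroupOf _
  have h2 : ((⊥ : Subgroup G).subgroupOf f.range).Normal := by rw [h1]; infer_instance
  exact ⟨f.range, ⊥, h2, ⟨((QuotientGroup.quotientMulEquivOfEq h1).trans QuotientGroup.quotientBot).trans
    (MonoidHom.ofInjective hf).symm⟩⟩

section perm

variable {F : Type*} [Field F] [CharP F 2]

/-- permutation matrices -/
def pm : Equiv.Perm (Fin 3) →* SpecialLinearGroup (Fin 3) F where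
  toFun σ := ⟨(σ⁻¹).permMatrix F, by
    rw [Matrix.det_permutation]
    rcases Int.units_eq_one_or (Equiv.Perm.sign σ⁻¹) with h | h
    · rw [h]; simp
    · rw [h]; simp [CharTwo.neg_eq]⟩
  map_one' := by
    apply Subtype.ext
    simp
  map_mul' σ τ := by
    apply Subtype.ext
    show ((σ * τ)⁻¹).permMatrix F = (σ⁻¹).permMatrix F * (τ⁻¹).permMatrix F
    rw [_root_.mul_inv_rev, Matrix.permMatrix_mul]

theorem pm_mulVec (σ : Equiv.Perm (Fin 3)) (v : Fin 3 → F) :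
    ((pm σ : SpecialLinearGroup (Fin 3) F) : Matrix (Fin 3) (Fin 3) F) *ᵥ v = v ∘ (σ⁻¹ : Equiv.Perm (Fin 3)) := by
  show ((σ⁻¹).permMatrix F) *ᵥ v = _
  rw [Matrix.permMatrix_mulVec]

theorem pm_mem (q : ℕ) (σ : Equiv.Perm (Fin 3)) : (pm σ : SpecialLinearGroup (Fin 3) F) ∈ SU 3 F q := by
  intro u v
  show hermForm 3 F q (((pm σ : SpecialLinearGroup (Fin 3) F) : Matrix (Fin 3) (Fin 3) F) *ᵥ u)
    (((pm σ : SpecialLinearGroup (Fin 3) F) : Matrix (Fin 3) (Fin 3) F) *ᵥ v) = hermForm 3 F q u v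
  rw [pm_mulVec, pm_mulVec]
  unfold hermForm
  exact Equiv.sum_comp (σ⁻¹ : Equiv.Perm (Fin 3)) (fun i => u i * v i ^ q)

end perm

/-- [P5e] -/
theorem s3_psu3 {F : Type*} [Field F] [Fintype F] (n : ℕ) (hn : 2 ≤ n) (hF : Fintype.card F = 4 ^ n) :
    Cfsg.Involves (Equiv.Perm (Fin 3)) (Cfsg.PSU 3 F (2 ^ n)) := by
  have := charP_two (by omega) hF
  have hF' : Fintype.card F = (2 ^ n) ^ 2 := by
    rw [hF, ← pow_mul, mul_comm, pow_mul]; norm_num
  let f : Equiv.Perm (Fin 3) →* SU 3 F (2 ^ n) := (pm (F := F)).codRestrict (SU 3 F (2 ^ n)) (fun σ => pm_mem _ σ)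
  refine involves_of_injective ((toPSU 3 F (2 ^ n)).comp f) ?_
  rw [injective_iff_map_eq_one]
  intro σ hσ
  have h1 : toPSU 3 F (2 ^ n) (1 : SU 3 F (2 ^ n)) = toPSU 3 F (2 ^ n) (f σ) := by
    rw [map_one]; exact hσ.symm
  obtain ⟨c, hc0, hc⟩ := (toPSU_eq hF' (by omega)).1 h1
  by_contra hne
  obtain ⟨i, hi⟩ : ∃ i, σ i ≠ i := by
    by_contra hn
    push Not at hn
    exact hne (Equiv.ext hn)
  have h2 := congrFun (hc (Pi.single i 1)) (σ i)
  rw [act_one] at h2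
  have h3 : act (f σ) (Pi.single i 1) = (Pi.single i (1 : F)) ∘ (σ⁻¹ : Equiv.Perm (Fin 3)) :=
    pm_mulVec σ _
  rw [h3] at h2
  simp [Pi.single_apply, hi] at h2

end Cfsg.Agent.H89.RtPSU3
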